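import Mathlib
import Cfsg.Prelude.Def_LocalEven
import Cfsg.Agent.Lib.Helper33.Torus.Defs

set_option autoImplicit false
set_option linter.unusedVariables false

/-!
Project TORUS (helper33): the frozen statement of S2788 from CORE.
-/

namespace Cfsg.Agent.Lib.Helper33.Torus

universe u v

open scoped commutatorElement in
theorem s2788_of_core (hCore : PkgCore.{u, v}) {G : Type u} [Group G] [Finite G] {p : ℕ}
    [Fact p.Prime] (V H : Subgroup G) (hV : Cfsg.IsElementaryAbelian p V)
    (hHV : H ≤ Subgroup.normalizer (V : Set G))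
    (hf : H ⊓ Subgroup.centralizer (V : Set G) = ⊥) {F : Type v} [Field F] [Fintype F] (n : ℕ)
    (hF : Fintype.card F = p ^ n)
    (hiso : Nonempty (↥H ≃* Matrix.SpecialLinearGroup (Fin 2) F)) (S : Sylow p ↥H)
    (T : Subgroup G) (hT : T = ((S : Subgroup ↥H).map H.subtype)) (A : Subgroup G) (hA : A ≤ T)
    (hA3 : 3 ≤ Nat.card A) (hquad : ⁅⁅V, A⁆, A⁆ = ⊥) :
    ∀ a ∈ A, a ≠ 1 → p ^ n ≤ ((V ⊓ Subgroup.centralizer ({a} : Set G))).relIndex V := by
  intro a haA ha1
  have hp : p.Prime := Fact.out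
  have hVp : IsPGroup p V := by
    intro v
    refine ⟨1, ?_⟩
    rw [pow_one]
    exact Subtype.ext (by simpa using hV.2 v.1 v.2)
  obtain ⟨φ⟩ := hiso
  have haT : a ∈ T := hA haA
  rw [hT, Subgroup.mem_map] at haT
  obtain ⟨s, hsS, hsa⟩ := haT
  have hs1 : s ≠ 1 := by
    rintro rfl
    exact ha1 (by simpa using hsa.symm)
  obtain ⟨j, hj⟩ := S.2 ⟨s, hsS⟩
  have hsj : s ^ (p ^ j) = 1 := by
    have := congrArg Subtype.val hj
    simpa using this
  have hsa' : a = (s : G) := by simpa using hsa.symm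
  subst hsa'
  rcases Nat.lt_or_ge n 2 with hn | hn
  · have hrel : (V ⊓ Subgroup.centralizer ({(s : G)} : Set G)).relIndex V ≠ 1 := by
      intro h1
      rw [Subgroup.relIndex_eq_one] at h1
      apply hs1
      have hsc : (s : G) ∈ H ⊓ Subgroup.centralizer (V : Set G) := by
        refine Subgroup.mem_inf.mpr ⟨s.2, ?_⟩
        rw [Subgroup.mem_centralizer_iff]
        intro v hv
        have h2 : v ∈ Subgroup.centralizer ({(s : G)} : Set G) := (Subgroup.mem_inf.mp (h1 hv)).2
        rw [Subgroup.mem_centralizer_iff] at h2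
        exact (h2 (s : G) rfl).symm
      rw [hf, Subgroup.mem_bot] at hsc
      exact Subtype.ext hsc
    have hdvd : (V ⊓ Subgroup.centralizer ({(s : G)} : Set G)).relIndex V ∣ Nat.card V :=
      Subgroup.relIndex_dvd_card _ _
    obtain ⟨m, hm⟩ := hVp.exists_card_eq
    rw [hm] at hdvd
    obtain ⟨i, -, hi⟩ := (Nat.dvd_prime_pow hp).mp hdvd
    rw [hi] at hrel ⊢
    have hi0 : i ≠ 0 := by
      rintro rfl
      exact hrel (pow_zero p)
    exact Nat.pow_le_pow_right hp.pos (by omega)
  · exact (hCore p V H hVp hHV hf F n hF (Or.inl hn) (Matrix.SpecialLinearGroup (Fin 2) F)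
      φ.toMonoidHom (MonoidHom.id _) φ.surjective Function.surjective_id
      (by
        intro z hz
        rw [MonoidHom.mem_ker, MonoidHom.id_apply] at hz
        rw [hz, one_pow])
      s ⟨j, hsj⟩
      (by
        intro h
        apply hs1
        have : φ s = 1 := h
        exact φ.map_eq_one_iff.mp this)).1

end Cfsg.Agent.Lib.Helper33.Torus
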